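import Cfsg.Agent.Lib.Helper66.CoverTC

/-! # A criterion for the Schur multiplier to be `Z3 × Z4 × Z4` -/

set_option autoImplicit false

namespace Cfsg.Agent.Lib.Helper93.L34

open Cfsg Cfsg.Agent.Lib.Helper66

theorem card_A48 : Nat.card (Multiplicative (ZMod 3 × ZMod 4 × ZMod 4)) = 48 := by
  rw [Nat.card_eq_fintype_card]
  simp [Fintype.card_prod, ZMod.card]

theorem hasSchur_of_model {G : Type} [Group G] [Finite G] {E : Type} [Group E] [Finite E]
    (ξ : E →* G) (hs : Function.Surjective ξ) (hk : ξ.ker ≤ Subgroup.center E)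
    (a b c : E) (ha : a ∈ ξ.ker ⊓ commutator E) (hb : b ∈ ξ.ker ⊓ commutator E)
    (hc : c ∈ ξ.ker ⊓ commutator E)
    (ha4 : a ^ 4 = 1) (hb4 : b ^ 4 = 1) (hc3 : c ^ 3 = 1)
    (hinj : ∀ i < 3, ∀ j < 4, ∀ k < 4, c ^ i * a ^ j * b ^ k = 1 → i = 0 ∧ j = 0 ∧ k = 0)
    (hub : ∀ (Γ : Type) [Group Γ] [Finite Γ] (π : Γ →* G), Cfsg.IsStemExtension π →
      Nat.card π.ker ≤ 48) :
    Cfsg.HasSchurMultiplier G (Multiplicative (ZMod 3 × ZMod 4 × ZMod 4)) := by
  obtain ⟨f, hf⟩ := exists_surj_schurM G ξ hs hk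
  have hM : Nat.card (schurM G) ≤ 48 := by
    obtain ⟨⟨Γ, _, _, σ, hσ, ⟨e⟩⟩, -⟩ := hasSchurMultiplier_schurM G
    rw [← Nat.card_congr e.toEquiv]
    exact hub Γ σ hσ
  have hcen : ∀ x ∈ ξ.ker ⊓ commutator E, ∀ y : E, x * y = y * x := fun x hx y =>
    (Subgroup.mem_center_iff.mp (hk hx.1) y).symm
  have hac : ∀ y, a * y = y * a := hcen a ha
  have hbc : ∀ y, b * y = y * b := hcen b hb
  have hcc : ∀ y, c * y = y * c := hcen c hc
  have hpa : ∀ m : ℕ, a ^ (m % 4) = a ^ m := fun m => (pow_eq_pow_mod m ha4).symm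
  have hpb : ∀ m : ℕ, b ^ (m % 4) = b ^ m := fun m => (pow_eq_pow_mod m hb4).symm
  have hpc : ∀ m : ℕ, c ^ (m % 3) = c ^ m := fun m => (pow_eq_pow_mod m hc3).symm
  let F : Multiplicative (ZMod 3 × ZMod 4 × ZMod 4) → ↥(ξ.ker ⊓ commutator E) := fun t =>
    ⟨c ^ (Multiplicative.toAdd t).1.val * a ^ (Multiplicative.toAdd t).2.1.val *
      b ^ (Multiplicative.toAdd t).2.2.val,
      mul_mem (mul_mem (pow_mem hc _) (pow_mem ha _)) (pow_mem hb _)⟩
  have hFmul : ∀ s t, F (s * t) = F s * F t := by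
    intro s t
    apply Subtype.ext
    change c ^ ((Multiplicative.toAdd s).1 + (Multiplicative.toAdd t).1).val *
        a ^ ((Multiplicative.toAdd s).2.1 + (Multiplicative.toAdd t).2.1).val *
        b ^ ((Multiplicative.toAdd s).2.2 + (Multiplicative.toAdd t).2.2).val =
      (c ^ (Multiplicative.toAdd s).1.val * a ^ (Multiplicative.toAdd s).2.1.val *
        b ^ (Multiplicative.toAdd s).2.2.val) *
      (c ^ (Multiplicative.toAdd t).1.val * a ^ (Multiplicative.toAdd t).2.1.val *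
        b ^ (Multiplicative.toAdd t).2.2.val)
    rw [ZMod.val_add, ZMod.val_add, ZMod.val_add, hpa, hpb, hpc, pow_add, pow_add, pow_add]
    generalize (Multiplicative.toAdd s).1.val = i1
    generalize (Multiplicative.toAdd s).2.1.val = j1
    generalize (Multiplicative.toAdd s).2.2.val = k1
    generalize (Multiplicative.toAdd t).1.val = i2
    generalize (Multiplicative.toAdd t).2.1.val = j2
    generalize (Multiplicative.toAdd t).2.2.val = k2
    have h1 : ∀ (n : ℕ) (y : E), a ^ n * y = y * a ^ n := fun n y =>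
      ((Commute.pow_left (show Commute a y from hac y) n)).eq
    have h2 : ∀ (n : ℕ) (y : E), b ^ n * y = y * b ^ n := fun n y =>
      ((Commute.pow_left (show Commute b y from hbc y) n)).eq
    calc c ^ i1 * c ^ i2 * (a ^ j1 * a ^ j2) * (b ^ k1 * b ^ k2)
        = c ^ i1 * (c ^ i2 * a ^ j1) * a ^ j2 * b ^ k1 * b ^ k2 := by group
      _ = c ^ i1 * (a ^ j1 * c ^ i2) * a ^ j2 * b ^ k1 * b ^ k2 := by rw [h1 j1 (c ^ i2)]
      _ = c ^ i1 * a ^ j1 * ((c ^ i2 * a ^ j2) * b ^ k1) * b ^ k2 := by group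
      _ = c ^ i1 * a ^ j1 * (b ^ k1 * (c ^ i2 * a ^ j2)) * b ^ k2 := by rw [h2 k1 (c ^ i2 * a ^ j2)]
      _ = _ := by group
  let φ : Multiplicative (ZMod 3 × ZMod 4 × ZMod 4) →* ↥(ξ.ker ⊓ commutator E) :=
    MonoidHom.mk' F hFmul
  have hφi : Function.Injective φ := by
    rw [injective_iff_map_eq_one]
    intro t ht
    have h1 : c ^ (Multiplicative.toAdd t).1.val * a ^ (Multiplicative.toAdd t).2.1.val *
      b ^ (Multiplicative.toAdd t).2.2.val = 1 := congrArg Subtype.val ht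
    obtain ⟨e1, e2, e3⟩ := hinj _ (ZMod.val_lt _) _ (ZMod.val_lt _) _ (ZMod.val_lt _) h1
    have f1 := (ZMod.val_eq_zero _).mp e1
    have f2 := (ZMod.val_eq_zero _).mp e2
    have f3 := (ZMod.val_eq_zero _).mp e3
    apply Multiplicative.toAdd.injective
    exact Prod.ext f1 (Prod.ext f2 f3)
  have hK1 : 48 ≤ Nat.card ↥(ξ.ker ⊓ commutator E) := by
    rw [← card_A48]
    exact Nat.card_le_card_of_injective φ hφi
  have hK2 : Nat.card ↥(ξ.ker ⊓ commutator E) ≤ Nat.card (schurM G) :=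
    Nat.card_le_card_of_surjective f hf
  have hfb : Function.Bijective f := by
    rw [Nat.bijective_iff_surjective_and_card]
    exact ⟨hf, by omega⟩
  have hφb : Function.Bijective φ := by
    rw [Nat.bijective_iff_injective_and_card]
    exact ⟨hφi, by rw [card_A48]; omega⟩
  exact HasSchurMultiplier.congr
    ((MulEquiv.ofBijective f hfb).trans (MulEquiv.ofBijective φ hφb).symm)
    (hasSchurMultiplier_schurM G)

end Cfsg.Agent.Lib.Helper93.L34
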