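import Cfsg.Agent.Lib.Helper66.CoverTC
import Cfsg.Agent.Lib.Helper7.OutM22a
import Cfsg.Agent.Lib.Helper7.MultM11

/-! # Generators and relators of `L3(4)` (three point stabiliser in `M24`) adapted to a subgroup `A6`
(port of helper66's `M22G`) -/

set_option autoImplicit false
set_option maxRecDepth 100000

namespace Cfsg.Agent.Lib.Helper93.L34

open Cfsg Cfsg.Agent.Lib.Helper27 Cfsg.Agent.Lib.Helper7
open Cfsg.Agent.Lib.Helper66 Cfsg.Agent.Lib.Helper66.TCE

/-- codes of the letters -/
def lcL : List ℕ := [984271807807162854884335716770725920, 984232431562632917729249219530035232, 984615103184442521682038825273146400, 984615103184442521682038825273146400, 984795341472366346341846312132136992, 984795341472366346341846312132136992, 979098015730098230391406316035095584, 979098015730098230391406316035095584, 983547815612311827640989344707231776, 983551488910455724623650023706565664]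
def lc (a : ℕ) : ℕ := lcL.getD a 0

/-- Carmichael's relators of `A6` -/
def SR : List (List ℕ) := [[0, 0, 0], [2, 2], [4, 4], [6, 6], [0, 2, 0, 2, 0, 2], [2, 4, 2, 4, 2, 4], [4, 6, 4, 6, 4, 6], [0, 4, 0, 4], [0, 6, 0, 6], [2, 6, 2, 6]]
/-- the other relators -/
def EX : List (List ℕ) := [[8, 8, 0, 3, 5, 0, 3, 1], [8, 6, 4, 2, 9, 0, 3, 5, 7, 1], [8, 6, 8, 6, 8, 6, 8, 6, 8, 6]]

noncomputable def gh (i : ℕ) : Equiv.Perm GolayPt := if i < 5 then permOf (lc (2 * i)) else 1

theorem lc_valid : ∀ a < 10, validCode (lc a) = true := by decide +kernel

theorem lc_inv : ∀ i < 5, permOf (lc (2 * i)) * permOf (lc (2 * i + 1)) = 1 := by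
  have h : ∀ i < 5, wordEqB [lc (2 * i), lc (2 * i + 1)] [] = true := by decide +kernel
  intro i hi
  have := word_eq (w1 := [lc (2 * i), lc (2 * i + 1)]) (w2 := [])
    (by rw [allList_iff]; intro c hc
        simp only [List.mem_cons, List.not_mem_nil, or_false] at hc
        rcases hc with rfl | rfl
        · exact lc_valid _ (by omega)
        · exact lc_valid _ (by omega))
    (by rw [allList_iff]; intro c hc; simp at hc) (h i hi)
  simpa using this

theorem L_gh (a : ℕ) (ha : a < 10) : L gh a = permOf (lc a) := by
  unfold L gh
  rcases Nat.even_or_odd' a with ⟨m, rfl | rfl⟩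
  · have e3 : (2 * m) % 2 = 0 := by omega
    have e4 : (2 * m) / 2 = m := by omega
    have e5 : m < 5 := by omega
    simp [e3, e4, e5]
  · have e3 : (2 * m + 1) % 2 = 1 := by omega
    have e4 : (2 * m + 1) / 2 = m := by omega
    have e5 : m < 5 := by omega
    simp only [e3, e4, e5, if_true, one_ne_zero, if_false]
    exact inv_eq_of_mul_eq_one_right (lc_inv m e5)

theorem ev_gh (w : List ℕ) (hw : ∀ a ∈ w, a < 10) : ev gh w = ((w.map lc).map permOf).prod := by
  unfold ev
  rw [List.map_map]
  congr 1
  apply List.map_congr_left
  intro a ha
  exact L_gh a (hw a ha)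

def chkW (w : List ℕ) : Bool :=
  w.all (fun a => Nat.blt a 10) && wordEqB (w.map lc) []

theorem ev_gh_of_chk {w : List ℕ} (h : chkW w = true) : ev gh w = 1 := by
  simp only [chkW, Bool.and_eq_true, List.all_eq_true] at h
  have hw : ∀ a ∈ w, a < 10 := fun a ha => by simpa [Nat.blt_eq] using h.1 a ha
  rw [ev_gh w hw]
  have := word_eq (w1 := w.map lc) (w2 := [])
    (by rw [allList_iff]; intro c hc
        obtain ⟨a, ha, rfl⟩ := List.mem_map.mp hc
        exact lc_valid a (hw a ha))
    (by rw [allList_iff]; intro c hc; simp at hc) h.2
  simpa using this

theorem SR_chk : SR.all chkW = true := by decide +kernel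
theorem EX_chk : EX.all chkW = true := by decide +kernel

theorem gh_mem (i : ℕ) : gh i ∈ fixer L3 := by
  have h : ∀ i < 5, checkFix L3 (lc (2 * i)) = true := by decide +kernel
  unfold gh
  split_ifs with hi
  · exact permOf_mem_fixer (h i hi)
  · exact one_mem _

/-- the generators, in `L3(4)` -/
noncomputable def gb (i : ℕ) : ↥(fixer L3) := ⟨gh i, gh_mem i⟩

theorem ev_gb (w : List ℕ) : ((ev gb w : ↥(fixer L3)) : Equiv.Perm GolayPt) = ev gh w :=
  TCE.ev_map (fixer L3).subtype gb w

theorem ev_gb_of_chk {w : List ℕ} (h : chkW w = true) : ev gb w = 1 :=
  Subtype.ext ((ev_gb w).trans (ev_gh_of_chk h))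

theorem lt_of_chk {w : List ℕ} (h : chkW w = true) : ∀ a ∈ w, a < 10 := by
  simp only [chkW, Bool.and_eq_true, List.all_eq_true] at h
  exact fun a ha => by simpa [Nat.blt_eq] using h.1 a ha

def genProg3 : List (ℕ × List ℕ) := [(961049357543638124829025043248433184, [984271807807162854884335716770725920, 984615103184442521682038825273146400, 983547815612311827640989344707231776, 984615103184442521682038825273146400, 984271807807162854884335716770725920, 984795341472366346341846312132136992]), (980293911369025689302322692099220512, [983547815612311827640989344707231776, 983547815612311827640989344707231776, 979098015730098230391406316035095584, 984795341472366346341846312132136992, 983551488910455724623650023706565664, 984615103184442521682038825273146400, 983547815612311827640989344707231776]), (975553606472918800280472297643870240, [984232431562632917729249219530035232, 979098015730098230391406316035095584, 983551488910455724623650023706565664, 984271807807162854884335716770725920, 983547815612311827640989344707231776, 984232431562632917729249219530035232]), (980512851159382908514979656779827232, [979098015730098230391406316035095584,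 983551488910455724623650023706565664, 979098015730098230391406316035095584, 983551488910455724623650023706565664, 984795341472366346341846312132136992, 984615103184442521682038825273146400]), (980504394422866046962412236452235296, [984271807807162854884335716770725920, 979098015730098230391406316035095584, 983547815612311827640989344707231776, 984271807807162854884335716770725920, 979098015730098230391406316035095584, 983547815612311827640989344707231776, 984795341472366346341846312132136992]), (961409415667826064667231448532617248, [984271807807162854884335716770725920, 979098015730098230391406316035095584, 983551488910455724623650023706565664, 984271807807162854884335716770725920, 979098015730098230391406316035095584, 983551488910455724623650023706565664, 984795341472366346341846312132136992]), (982125237077252311731715764534741024, [984232431562632917729249219530035232, 984615103184442521682038825273146400, 979098015730098230391406316035095584, 983551488910455724623650023706565664, 984271807807162854884335716770725920, 984615103184442521682038825273146400, 983551488910455724623650023706565664]), (972606645568131968584696805283956768,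 [984271807807162854884335716770725920, 983547815612311827640989344707231776, 984795341472366346341846312132136992, 984615103184442521682038825273146400, 984271807807162854884335716770725920, 983551488910455724623650023706565664])]

theorem genProg3_check : slpCheck genProg3 lcL = true := by decide +kernel

theorem fixer_L3_le (H : Subgroup (Equiv.Perm GolayPt)) (hH : ∀ i < 5, gh i ∈ H) : fixer L3 ≤ H := by
  have hk : ∀ x ∈ lcL, validCode x = true ∧ permOf x ∈ H := by
    intro x hx
    obtain ⟨a, ha, rfl⟩ : ∃ a, a < 10 ∧ lc a = x := by
      obtain ⟨a, ha, rfl⟩ := List.mem_iff_getElem.mp hx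
      exact ⟨a, ha, by unfold lc; rw [List.getD_eq_getElem _ _ ha]⟩
    refine ⟨lc_valid a ha, ?_⟩
    rw [← L_gh a ha]
    exact TCE.L_mem H gh (hH _ (by omega))
  have hall := slp_sound H genProg3 _ genProg3_check hk
  have hsub : ∀ l : List ℕ, allList (fun x => memList x (genProg3.map Prod.fst ++ lcL)) l = true →
      ∀ c ∈ l, permOf c ∈ H := by
    intro l hl c hc
    rw [allList_iff] at hl
    exact (hall c (memList_sound (hl c hc))).2
  have h7 : fixer L7 ≤ H := by rw [fixer_L7]; exact bot_le
  have h6 : fixer L6 ≤ H :=
    fixer_le_of_gens H L6 sg6 (b := 5) (by norm_num) 3 147488 inv6 (by decide +kernel)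
      (hsub sg6 (by decide +kernel)) (by decide +kernel) (by decide +kernel) h7
  have h5 : fixer L5 ≤ H :=
    fixer_le_of_gens H L5 sg5 (b := 4) (by norm_num) 4 8241104 inv5 (by decide +kernel)
      (hsub sg5 (by decide +kernel)) (by decide +kernel) (by decide +kernel) h6
  have h4 : fixer L4 ≤ H :=
    fixer_le_of_gens H L4 sg4 (b := 3) (by norm_num) 6 8388600 inv4 (by decide +kernel)
      (hsub sg4 (by decide +kernel)) (by decide +kernel) (by decide +kernel) h5
  exact fixer_le_of_gens H L3 sg3 (b := 2) (by norm_num) 8 8388604 inv3 (by decide +kernel)
      (hsub sg3 (by decide +kernel)) (by decide +kernel) (by decide +kernel) h4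

theorem closure_gb : Subgroup.closure {x | ∃ i < 5, x = gb i} = ⊤ := by
  rw [eq_top_iff]
  intro x _
  have h1 : fixer L3 ≤ (Subgroup.closure {x | ∃ i < 5, x = gb i}).map (fixer L3).subtype := by
    apply fixer_L3_le
    intro i hi
    exact ⟨gb i, Subgroup.subset_closure ⟨i, hi, rfl⟩, rfl⟩
  obtain ⟨y, hy, hyx⟩ := h1 x.2
  have : y = x := Subtype.ext hyx
  rwa [← this]

theorem card_G : Nat.card ↥(fixer L3) = 20160 := card_fixer_L3

end Cfsg.Agent.Lib.Helper93.L34
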